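import Cfsg.Agent.Lib.BlockH.StabBlock

/-!
# The Brauer correspondence over a subgroup containing the normalizer (S4670)
-/

set_option linter.unusedSectionVars false
set_option linter.style.haveILetI false
set_option autoImplicit false

namespace Cfsg.Agent.Lib.BlockH.BrauerCorr

open Cfsg MonoidAlgebra
open Cfsg.Agent.Lib.Blocks.Local Cfsg.Agent.Lib.Blocks.Central Cfsg.Agent.Lib.Blocks.Brauer
open Cfsg.Agent.Lib.Blocks.Induced Cfsg.Agent.Lib.Blocks.Weak Cfsg.Agent.Lib.Blocks.Third
open Cfsg.Agent.Lib.Blocks.Defect Cfsg.Agent.Lib.Blocks.Defect2 Cfsg.Agent.Lib.BlockT.SylowIn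
open Cfsg.Agent.Lib.Blocks.Inducing Cfsg.Agent.Lib.Blocks.FMT
open Cfsg.Agent.Lib.BlockH.Pairs Cfsg.Agent.Lib.BlockH.BrauerMap Cfsg.Agent.Lib.BlockH.Transport
open Cfsg.Agent.Lib.BlockH.Subpair Cfsg.Agent.Lib.BlockH.SubpairLE Cfsg.Agent.Lib.BlockH.ConjPair
open Cfsg.Agent.Lib.BlockH.MaxPair Cfsg.Agent.Lib.BlockH.Sylow Cfsg.Agent.Lib.BlockH.Defects
open Cfsg.Agent.Lib.BlockH.FusionB Cfsg.Agent.Lib.BlockH.StabBlock

universe u

theorem cube_identity {R : Type*} [CommRing R] (a b : R) (hbb : b * b = b) :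
    (a - b) * (a - b) * (a - b) - (a - b) = (a * a - a) * (1 + a - (b + b + b)) := by
  have h2 : b * b * b = b := by rw [hbb, hbb]
  have e : (a - b) * (a - b) * (a - b) - (a - b) = a * a * a - (a * a * b + a * a * b + a * a * b) +
      (a * (b * b) + a * (b * b) + a * (b * b)) - b * b * b - a + b := by ring
  rw [e, h2, hbb]
  ring

theorem odd_pow_identity {R : Type*} [CommRing R] (w : R) (k : ℕ) :
    w ^ (2 * (k + 1) + 1) - w = (w ^ (2 * k + 1) - w) * (w * w) + (w * w * w - w) := by ring

theorem pow_split {R : Type*} [CommRing R] (w : R) (n : ℕ) :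
    w ^ (2 * n + 1) = w ^ n * w ^ (n + 1) := by ring

section Abstract

variable {N : Type u} [Group N] [Fintype N] {M : Ideal AlgInt} [M.IsPrime]

/-- Two idempotents modulo `J` with congruent central characters are congruent. -/
theorem jc_of_idem_sub {a b : Subalgebra.center ℂ (GA N)} (ha : a ∈ localCenter M N)
    (hb : b ∈ localCenter M N) (haa : Jc M ((a * a - a : Subalgebra.center ℂ (GA N)) : GA N))
    (hbb : b * b = b) (hω : ∀ ξ : IrrCharacter N, MemLocalIdeal M (omegaHom ξ a - omegaHom ξ b)) :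
    Jc M ((a - b : Subalgebra.center ℂ (GA N)) : GA N) := by
  have hRa : Rc M (a : GA N) := Rc.of_localCenter ha
  have hRb : Rc M (b : GA N) := Rc.of_localCenter hb
  have hwl : a - b ∈ localCenter M N := Subring.sub_mem _ ha hb
  obtain ⟨n, hn⟩ := exists_pow_Jc hwl (fun ξ => by rw [map_sub]; exact hω ξ)
  obtain ⟨w, hw⟩ : ∃ w, w = a - b := ⟨_, rfl⟩
  rw [← hw] at hwl hn ⊢
  have hRw : Rc M (w : GA N) := Rc.of_localCenter hwl
  -- `w ^ 3 ≡ w`
  have h3 : Jc M ((w * w * w - w : Subalgebra.center ℂ (GA N)) : GA N) := by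
    have e : w * w * w - w = (a * a - a) * (1 + a - (b + b + b)) := by
      rw [hw]
      exact cube_identity a b hbb
    rw [e, Subalgebra.coe_mul]
    exact Jc.mul_Rc haa (Rc.sub (Rc.add Rc.one hRa) (Rc.add (Rc.add hRb hRb) hRb))
  -- iterate
  have hk : ∀ k : ℕ, Jc M ((w ^ (2 * k + 1) - w : Subalgebra.center ℂ (GA N)) : GA N) := by
    intro k
    induction k with
    | zero => simpa using Jc.zero
    | succ k ih =>
      have e : w ^ (2 * (k + 1) + 1) - w = (w ^ (2 * k + 1) - w) * (w * w) + (w * w * w - w) :=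
        odd_pow_identity w k
      rw [e, Subalgebra.coe_add, Subalgebra.coe_mul]
      exact Jc.add (Jc.mul_Rc ih (by rw [Subalgebra.coe_mul]; exact hRw.mul hRw)) h3
  have hpow : Jc M ((w ^ (2 * n + 1) : Subalgebra.center ℂ (GA N)) : GA N) := by
    have e : w ^ (2 * n + 1) = w ^ n * w ^ (n + 1) := pow_split w n
    rw [e, Subalgebra.coe_mul]
    refine Jc.mul_Rc ?_ ?_
    · have : ((w ^ n : Subalgebra.center ℂ (GA N)) : GA N) = (w : GA N) ^ n := rfl
      rw [this]
      exact hn
    · have : ((w ^ (n + 1) : Subalgebra.center ℂ (GA N)) : GA N) = (w : GA N) ^ (n + 1) := rfl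
      rw [this]
      exact hRw.pow _
  have := Jc.sub hpow (hk n)
  have e : ((w ^ (2 * n + 1) : Subalgebra.center ℂ (GA N)) : GA N) -
      ((w ^ (2 * n + 1) - w : Subalgebra.center ℂ (GA N)) : GA N) = (w : GA N) := by
    rw [Subalgebra.coe_sub]
    abel
  rwa [e] at this

end Abstract

section Lone

variable {G : Type u} [Group G] [Fintype G] {M : Ideal AlgInt} {p : ℕ} [Fact p.Prime] {D : Subgroup G}

/-- The Brauer image of a block with defect group `D` is the idempotent of its correspondent. -/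
theorem jc_brOf_sub_idem [Fintype (IrrCharacter G)] [Fintype (Subgroup.normalizer (D : Set G))]
    [Fintype (IrrCharacter (Subgroup.normalizer (D : Set G)))] (hM : IsPModular p M) (hpg : IsPGroup p D)
    {B : Set (IrrCharacter G)} (hB : IsPBlock M B) (hD : IsDefectGroup p M B D)
    {b : Set (IrrCharacter (Subgroup.normalizer (D : Set G)))} (hb : IsPBlock M b)
    (hDb : IsDefectGroup p M b (D.subgroupOf (Subgroup.normalizer (D : Set G))))
    (hind : IsInducedBlock M (Subgroup.normalizer (D : Set G)) b B) :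
    Jc M ((brOf (isBrauerPair_normalizer hpg) (idem B) - idem b :
      Subalgebra.center ℂ (GA (Subgroup.normalizer (D : Set G)))) : GA (Subgroup.normalizer (D : Set G))) := by
  classical
  haveI := isPrime_of_pModular hM
  have hP := isBrauerPair_normalizer hpg
  have hz : idem B ∈ localCenter M G := idem_mem_localCenter hB
  refine jc_of_idem_sub (brOf_mem_localCenter hP hz) (idem_mem_localCenter hb) ?_ (idem_mul_self b) ?_
  · have h1 := brOf_mul_sub_mem hM hP hz hz
    rw [idem_mul_self] at h1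
    have h2 := h1.neg
    have e : -((brOf hP (idem B) : GA (Subgroup.normalizer (D : Set G))) -
        (brOf hP (idem B) : GA (Subgroup.normalizer (D : Set G))) *
        (brOf hP (idem B) : GA (Subgroup.normalizer (D : Set G)))) =
        ((brOf hP (idem B) * brOf hP (idem B) - brOf hP (idem B) :
          Subalgebra.center ℂ (GA (Subgroup.normalizer (D : Set G)))) : GA (Subgroup.normalizer (D : Set G))) := by
      rw [Subalgebra.coe_sub, Subalgebra.coe_mul, neg_sub]
    rwa [e] at h2
  · intro ξ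
    obtain ⟨B₁, hind₁⟩ := exists_induced hM hP (b := blockOf M (ξ : _ → ℂ)) ⟨ξ, rfl⟩
    obtain ⟨χ₁, hχ₁⟩ := isPBlock_nonempty hind₁.2.1
    have h1 := indHom_sub_brOf_mem hM hP ξ hz
    have h2 := IsInducedBlock.sub_mem _ hind₁ (mem_blockOf_self ξ) hχ₁ hz
    have h3 := memLocalIdeal_sub h2 h1
    have e : indHom (Subgroup.normalizer (D : Set G)) ξ (idem B) - omegaHom χ₁ (idem B) -
        (indHom (Subgroup.normalizer (D : Set G)) ξ (idem B) - omegaHom ξ (brOf hP (idem B))) =
        omegaHom ξ (brOf hP (idem B)) - omegaHom χ₁ (idem B) := by ring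
    rw [e] at h3
    by_cases hχB : χ₁ ∈ B
    · -- `B₁ = B`
      have hB₁ : B₁ = B := by
        rw [isPBlock_eq_blockOf hind₁.2.1 hχ₁, isPBlock_eq_blockOf hB hχB]
      subst hB₁
      obtain ⟨D₁, hD₁⟩ := exists_isDefectGroup (p := p) hind₁.1
      have he := defect_eq_subgroupOf hM hP.normal hP.le hind₁ hD hD₁
      rw [he] at hD₁
      have hbb := first_main_unique hM hpg hb hDb hind hind₁
      have hξb : ξ ∈ b := by
        rw [hbb]
        exact mem_blockOf_self ξ
      rw [omegaHom_idem, if_pos hχB] at h3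
      rw [omegaHom_idem, if_pos hξb]
      exact h3
    · have hξb : ξ ∉ b := by
        intro hξb
        have hbb : b = blockOf M (ξ : _ → ℂ) := isPBlock_eq_blockOf hb hξb
        have := IsInducedBlock.unique _ (hbb ▸ hind) hind₁
        exact hχB (this ▸ hχ₁)
      rw [omegaHom_idem, if_neg hχB, sub_zero] at h3
      rw [omegaHom_idem, if_neg hξb, sub_zero]
      exact h3

/-- The congruence on `C_G(D)`. -/
theorem blockCoeff_sub_mem_of_first_main (hM : IsPModular p M) (hpg : IsPGroup p D)
    {B : Set (IrrCharacter G)} (hB : IsPBlock M B) (hD : IsDefectGroup p M B D)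
    {b : Set (IrrCharacter (Subgroup.normalizer (D : Set G)))} (hb : IsPBlock M b)
    (hDb : IsDefectGroup p M b (D.subgroupOf (Subgroup.normalizer (D : Set G))))
    (hind : IsInducedBlock M (Subgroup.normalizer (D : Set G)) b B)
    (x : Subgroup.normalizer (D : Set G)) (hx : (x : G) ∈ Subgroup.centralizer (D : Set G)) :
    MemLocalIdeal M (blockCoeff B (x : G) - blockCoeff b x) := by
  classical
  haveI := isPrime_of_pModular hM
  haveI := Cfsg.Agent.Lib.Char.Ortho.finite_irrCharacter (G := G)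
  letI : Fintype (IrrCharacter G) := Fintype.ofFinite _
  letI : Fintype (Subgroup.normalizer (D : Set G)) := Fintype.ofFinite _
  haveI := Cfsg.Agent.Lib.Char.Ortho.finite_irrCharacter (G := Subgroup.normalizer (D : Set G))
  letI : Fintype (IrrCharacter (Subgroup.normalizer (D : Set G))) := Fintype.ofFinite _
  have h := jc_brOf_sub_idem hM hpg hB hD hb hDb hind x
  rw [Subalgebra.coe_sub, coeff_sub', coeff_brOf, coeff_res_of_mem _ hx, coeff_idem, coeff_idem] at h
  exact h

/-- Two blocks with a normal `p`-subgroup whose idempotents are congruent on its centralizer agree. -/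
theorem block_eq_of_coeff_sub_mem {K : Type*} [Group K] [Fintype K] {Q : Subgroup K} (hM : IsPModular p M)
    (hQ : Q.Normal) (hp : IsPGroup p Q) {b₁ b₂ : Set (IrrCharacter K)} (hb₁ : IsPBlock M b₁)
    (hb₂ : IsPBlock M b₂)
    (h : ∀ x ∈ Subgroup.centralizer (Q : Set K), MemLocalIdeal M (blockCoeff b₁ x - blockCoeff b₂ x)) :
    b₁ = b₂ := by
  classical
  haveI := isPrime_of_pModular hM
  haveI := Cfsg.Agent.Lib.Char.Ortho.finite_irrCharacter (G := K)
  letI : Fintype (IrrCharacter K) := Fintype.ofFinite _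
  obtain ⟨ξ, hξ⟩ := isPBlock_nonempty hb₁
  have hJ : Jc M (((idem b₁ - idem b₂ : Subalgebra.center ℂ (GA K))) : GA K) := by
    intro g
    rw [Subalgebra.coe_sub, coeff_sub', coeff_idem, coeff_idem]
    by_cases hg : g ∈ Subgroup.centralizer (Q : Set K)
    · exact h g hg
    · rw [Cfsg.Agent.Lib.BlockH.Idem.blockCoeff_eq_zero_of_not_mem_centralizer hM Q hQ hp hb₁ hg,
        Cfsg.Agent.Lib.BlockH.Idem.blockCoeff_eq_zero_of_not_mem_centralizer hM Q hQ hp hb₂ hg, sub_zero]
      exact memLocalIdeal_zero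
  have h2 := omegaHom_mem_of_Jc ξ hJ
  rw [map_sub, omegaHom_idem, if_pos hξ] at h2
  by_cases hξ₂ : ξ ∈ b₂
  · rw [isPBlock_eq_blockOf hb₁ hξ, isPBlock_eq_blockOf hb₂ hξ₂]
  · rw [omegaHom_idem, if_neg hξ₂, sub_zero] at h2
    exact absurd h2 one_notMemLocalIdeal

end Lone

section Main

variable {G : Type u} [Group G] [Fintype G] {M : Ideal AlgInt} {p : ℕ} [Fact p.Prime] {P H : Subgroup G}

theorem le_of_normalizer_le (hH : Subgroup.normalizer (P : Set G) ≤ H) : P ≤ H :=
  Subgroup.le_normalizer.trans hH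

/-- The normalizer of `P` in `H` is the normalizer of `P` in `G`. -/
def normEquiv (hH : Subgroup.normalizer (P : Set G) ≤ H) :
    Subgroup.normalizer (((P.subgroupOf H : Subgroup H)) : Set H) ≃* Subgroup.normalizer (P : Set G) where
  toFun x := ⟨((x : H) : G), by
    have hx := Subgroup.mem_normalizer_iff.mp x.2
    rw [Subgroup.mem_normalizer_iff]
    intro g
    constructor
    · intro hg
      have h1 : (⟨g, le_of_normalizer_le hH hg⟩ : H) ∈ P.subgroupOf H := Subgroup.mem_subgroupOf.mpr hg
      have h2 := (hx _).mp h1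
      exact Subgroup.mem_subgroupOf.mp h2
    · intro hg
      have hgH : g ∈ H := by
        have h3 := H.mul_mem (H.mul_mem (H.inv_mem (x : H).2) (le_of_normalizer_le hH hg)) (x : H).2
        have e : ((x : H) : G)⁻¹ * (((x : H) : G) * g * ((x : H) : G)⁻¹) * ((x : H) : G) = g := by group
        rwa [e] at h3
      have h2 : ((x : H) * (⟨g, hgH⟩ : H) * (x : H)⁻¹) ∈ P.subgroupOf H := Subgroup.mem_subgroupOf.mpr hg
      exact Subgroup.mem_subgroupOf.mp ((hx _).mpr h2)⟩
  invFun y := ⟨⟨y, hH y.2⟩, by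
    have hy := Subgroup.mem_normalizer_iff.mp y.2
    rw [Subgroup.mem_normalizer_iff]
    intro g
    rw [Subgroup.mem_subgroupOf, Subgroup.mem_subgroupOf]
    exact hy _⟩
  left_inv x := rfl
  right_inv y := rfl
  map_mul' a b := rfl

@[simp] theorem coe_normEquiv (hH : Subgroup.normalizer (P : Set G) ≤ H)
    (x : Subgroup.normalizer (((P.subgroupOf H : Subgroup H)) : Set H)) :
    ((normEquiv hH x : Subgroup.normalizer (P : Set G)) : G) = ((x : H) : G) := rfl

@[simp] theorem coe_coe_normEquiv_symm (hH : Subgroup.normalizer (P : Set G) ≤ H)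
    (y : Subgroup.normalizer (P : Set G)) :
    (((normEquiv hH).symm y : Subgroup.normalizer (((P.subgroupOf H : Subgroup H)) : Set H)) : H).1 = (y : G) := rfl

theorem map_normEquiv (hH : Subgroup.normalizer (P : Set G) ≤ H) :
    ((P.subgroupOf H).subgroupOf (Subgroup.normalizer (((P.subgroupOf H : Subgroup H)) : Set H))).map
      (normEquiv hH).toMonoidHom = P.subgroupOf (Subgroup.normalizer (P : Set G)) := by
  ext y
  constructor
  · rintro ⟨x, hx, rfl⟩
    exact Subgroup.mem_subgroupOf.mp (Subgroup.mem_subgroupOf.mp hx)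
  · intro hy
    refine ⟨(normEquiv hH).symm y, ?_, by simp⟩
    exact Subgroup.mem_subgroupOf.mpr (Subgroup.mem_subgroupOf.mpr hy)

theorem map_normEquiv_symm (hH : Subgroup.normalizer (P : Set G) ≤ H) :
    (P.subgroupOf (Subgroup.normalizer (P : Set G))).map (normEquiv hH).symm.toMonoidHom =
      (P.subgroupOf H).subgroupOf (Subgroup.normalizer (((P.subgroupOf H : Subgroup H)) : Set H)) := by
  ext y
  constructor
  · rintro ⟨x, hx, rfl⟩
    exact Subgroup.mem_subgroupOf.mpr (Subgroup.mem_subgroupOf.mpr (Subgroup.mem_subgroupOf.mp hx))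
  · intro hy
    refine ⟨normEquiv hH y, ?_, by simp⟩
    exact Subgroup.mem_subgroupOf.mpr (Subgroup.mem_subgroupOf.mp (Subgroup.mem_subgroupOf.mp hy))

/-- The congruence of the coefficients on `H`. -/
theorem coeff_H (hM : IsPModular p M) (hP : IsPGroup p P) (hH : Subgroup.normalizer (P : Set G) ≤ H)
    {c : Set (IrrCharacter H)} (hc : IsPBlock M c) (hDc : IsDefectGroup p M c (P.subgroupOf H))
    {b' : Set (IrrCharacter (Subgroup.normalizer (((P.subgroupOf H : Subgroup H)) : Set H)))}
    (hb' : IsPBlock M b')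
    (hDb' : IsDefectGroup p M b' ((P.subgroupOf H).subgroupOf
      (Subgroup.normalizer (((P.subgroupOf H : Subgroup H)) : Set H))))
    (hind : IsInducedBlock M (Subgroup.normalizer (((P.subgroupOf H : Subgroup H)) : Set H)) b' c)
    (x : G) (hx : x ∈ Subgroup.centralizer (P : Set G)) (hxN : x ∈ Subgroup.normalizer (P : Set G)) :
    MemLocalIdeal M (subgroupBlockCoeff H c x - blockCoeff (blockMap (normEquiv hH) b') ⟨x, hxN⟩) := by
  classical
  letI : Fintype H := Fintype.ofFinite _
  have hpH : IsPGroup p (P.subgroupOf H) := hP.comap_of_injective _ (Subgroup.subtype_injective _)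
  have h1 := blockCoeff_sub_mem_of_first_main hM hpH hc hDc hb' hDb' hind
    ((normEquiv hH).symm ⟨x, hxN⟩) (by
      rw [Subgroup.mem_centralizer_iff]
      rintro ⟨q, hqH⟩ hq
      apply Subtype.ext
      exact Subgroup.mem_centralizer_iff.mp hx q (Subgroup.mem_subgroupOf.mp hq))
  have h2 := blockCoeff_blockMap (normEquiv hH) b' ((normEquiv hH).symm ⟨x, hxN⟩)
  rw [MulEquiv.apply_symm_apply] at h2
  rw [h2]
  have h3 : subgroupBlockCoeff H c x = blockCoeff c
      (((normEquiv hH).symm ⟨x, hxN⟩ : Subgroup.normalizer (((P.subgroupOf H : Subgroup H)) : Set H)) : H) := by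
    unfold subgroupBlockCoeff
    rw [dif_pos (hH hxN)]
    rfl
  rw [h3]
  exact h1

theorem mem_centralizer_of_normalizer {y : Subgroup.normalizer (P : Set G)}
    (h : y ∈ Subgroup.centralizer (((P.subgroupOf (Subgroup.normalizer (P : Set G)) : Subgroup _)) : Set _)) :
    (y : G) ∈ Subgroup.centralizer (P : Set G) := by
  rw [Subgroup.mem_centralizer_iff]
  intro q hq
  have hqN : q ∈ Subgroup.normalizer (P : Set G) := Subgroup.le_normalizer hq
  have := Subgroup.mem_centralizer_iff.mp h ⟨q, hqN⟩ (Subgroup.mem_subgroupOf.mpr hq)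
  exact congrArg Subtype.val this

/-- **The Brauer correspondence over `H`.** -/
theorem brauer_correspondence_over (hM : IsPModular p M) (hP : IsPGroup p P)
    (hH : Subgroup.normalizer (P : Set G) ≤ H) :
    (∀ B : Set (IrrCharacter G), IsPBlock M B → IsDefectGroup p M B P →
      ∃! c : Set (IrrCharacter H), IsPBlock M c ∧ IsDefectGroup p M c (P.subgroupOf H) ∧
        ∀ x : G, x ∈ Subgroup.centralizer (P : Set G) →
          MemLocalIdeal M (blockCoeff B x - subgroupBlockCoeff H c x)) ∧
    (∀ c : Set (IrrCharacter H), IsPBlock M c → IsDefectGroup p M c (P.subgroupOf H) →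
      ∃! B : Set (IrrCharacter G), IsPBlock M B ∧ IsDefectGroup p M B P ∧
        ∀ x : G, x ∈ Subgroup.centralizer (P : Set G) →
          MemLocalIdeal M (blockCoeff B x - subgroupBlockCoeff H c x)) := by
  classical
  haveI := isPrime_of_pModular hM
  letI : Fintype H := Fintype.ofFinite _
  haveI := Cfsg.Agent.Lib.Char.Ortho.finite_irrCharacter (G := G)
  letI : Fintype (IrrCharacter G) := Fintype.ofFinite _
  haveI := Cfsg.Agent.Lib.Char.Ortho.finite_irrCharacter (G := H)
  letI : Fintype (IrrCharacter H) := Fintype.ofFinite _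
  letI : Fintype (Subgroup.normalizer (P : Set G)) := Fintype.ofFinite _
  haveI := Cfsg.Agent.Lib.Char.Ortho.finite_irrCharacter (G := Subgroup.normalizer (P : Set G))
  letI : Fintype (IrrCharacter (Subgroup.normalizer (P : Set G))) := Fintype.ofFinite _
  letI : Fintype (Subgroup.normalizer (((P.subgroupOf H : Subgroup H)) : Set H)) := Fintype.ofFinite _
  haveI := Cfsg.Agent.Lib.Char.Ortho.finite_irrCharacter
    (G := Subgroup.normalizer (((P.subgroupOf H : Subgroup H)) : Set H))
  letI : Fintype (IrrCharacter (Subgroup.normalizer (((P.subgroupOf H : Subgroup H)) : Set H))) :=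
    Fintype.ofFinite _
  have hpH : IsPGroup p (P.subgroupOf H) := hP.comap_of_injective _ (Subgroup.subtype_injective _)
  have hCN : ∀ x, x ∈ Subgroup.centralizer (P : Set G) → x ∈ Subgroup.normalizer (P : Set G) :=
    fun x hx => Cfsg.Agent.Lib.BlockH.Sylow.centralizer_le_normalizer'' P hx
  have hNn : (P.subgroupOf (Subgroup.normalizer (P : Set G))).Normal :=
    (isBrauerPair_normalizer hP).normal
  have hNp : IsPGroup p (P.subgroupOf (Subgroup.normalizer (P : Set G))) :=
    hP.comap_of_injective _ (Subgroup.subtype_injective _)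
  constructor
  · intro B hB hDB
    obtain ⟨b, ⟨hb, hDb, hindb⟩, -⟩ := (first_main hM hP).2 B hB hDB
    have hb' : IsPBlock M (blockMap (normEquiv hH).symm b) := isPBlock_blockMap _ hb
    have hDb' : IsDefectGroup p M (blockMap (normEquiv hH).symm b) ((P.subgroupOf H).subgroupOf
        (Subgroup.normalizer (((P.subgroupOf H : Subgroup H)) : Set H))) := by
      rw [← map_normEquiv_symm hH]
      exact isDefectGroup_blockMap _ hDb
    obtain ⟨c, hc, hDc, hindc⟩ := first_main_exists hM hpH hb' hDb'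
    have hbb : blockMap (normEquiv hH) (blockMap (normEquiv hH).symm b) = b := blockMap_blockMap_symm _ _
    refine ⟨c, ⟨hc, hDc, fun x hx => ?_⟩, ?_⟩
    · have h1 := coeff_H hM hP hH hc hDc hb' hDb' hindc x hx (hCN x hx)
      rw [hbb] at h1
      have h2 := blockCoeff_sub_mem_of_first_main hM hP hB hDB hb hDb hindb ⟨x, hCN x hx⟩ hx
      have := memLocalIdeal_sub h2 h1
      simpa using this
    · rintro c₁ ⟨hc₁, hDc₁, h₁⟩
      obtain ⟨b₁', ⟨hb₁', hDb₁', hind₁⟩, -⟩ := (first_main hM hpH).2 c₁ hc₁ hDc₁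
      have hb₁ : IsPBlock M (blockMap (normEquiv hH) b₁') := isPBlock_blockMap _ hb₁'
      have heq : blockMap (normEquiv hH) b₁' = b := by
        refine block_eq_of_coeff_sub_mem hM hNn hNp hb₁ hb fun y hy => ?_
        have hyC := mem_centralizer_of_normalizer hy
        have h1 := coeff_H hM hP hH hc₁ hDc₁ hb₁' hDb₁' hind₁ (y : G) hyC y.2
        have h2 := h₁ (y : G) hyC
        have h3 := blockCoeff_sub_mem_of_first_main hM hP hB hDB hb hDb hindb y hyC
        have h4 := memLocalIdeal_neg (memLocalIdeal_sub (memLocalIdeal_add h1 h2) h3)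
        convert h4 using 1
        ring
      have heq' : b₁' = blockMap (normEquiv hH).symm b := by
        rw [← heq]
        exact (blockMap_symm_blockMap _ _).symm
      subst heq'
      exact IsInducedBlock.unique _ hind₁ hindc
  · intro c hc hDc
    obtain ⟨b', ⟨hb', hDb', hindb'⟩, -⟩ := (first_main hM hpH).2 c hc hDc
    have hb : IsPBlock M (blockMap (normEquiv hH) b') := isPBlock_blockMap _ hb'
    have hDb : IsDefectGroup p M (blockMap (normEquiv hH) b')
        (P.subgroupOf (Subgroup.normalizer (P : Set G))) := by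
      rw [← map_normEquiv hH]
      exact isDefectGroup_blockMap _ hDb'
    obtain ⟨B, hB, hDB, hindB⟩ := first_main_exists hM hP hb hDb
    refine ⟨B, ⟨hB, hDB, fun x hx => ?_⟩, ?_⟩
    · have h1 := coeff_H hM hP hH hc hDc hb' hDb' hindb' x hx (hCN x hx)
      have h2 := blockCoeff_sub_mem_of_first_main hM hP hB hDB hb hDb hindB ⟨x, hCN x hx⟩ hx
      have := memLocalIdeal_sub h2 h1
      simpa using this
    · rintro B₁ ⟨hB₁, hDB₁, h₁⟩
      obtain ⟨b₁, ⟨hb₁, hDb₁, hind₁⟩, -⟩ := (first_main hM hP).2 B₁ hB₁ hDB₁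
      have heq : b₁ = blockMap (normEquiv hH) b' := by
        refine block_eq_of_coeff_sub_mem hM hNn hNp hb₁ hb fun y hy => ?_
        have hyC := mem_centralizer_of_normalizer hy
        have h1 := coeff_H hM hP hH hc hDc hb' hDb' hindb' (y : G) hyC y.2
        have h2 := h₁ (y : G) hyC
        have h3 := blockCoeff_sub_mem_of_first_main hM hP hB₁ hDB₁ hb₁ hDb₁ hind₁ y hyC
        have h4 := memLocalIdeal_add (memLocalIdeal_sub h2 h3) h1
        convert h4 using 1
        ring
      subst heq
      exact IsInducedBlock.unique _ hind₁ hindB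

end Main

end Cfsg.Agent.Lib.BlockH.BrauerCorr
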